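import Mathlib
import Cfsg.Agent.Lib.Helper47.T2933.Defs

set_option autoImplicit false

namespace Cfsg.Agent.Lib.Helper47.T2933

variable {T : Type*} [Group T] [Finite T]

/-- [AB1] orbits of `ρ` on `N ∖ {1}` have size 3. -/
theorem AB1 (ρ : MulAut T) (cube : ∀ g, ρ (ρ (ρ g)) = g) (fpf : ∀ g, ρ g = g → g = 1)
    (N : Subgroup T) (hN : ∀ g ∈ N, ρ g ∈ N) : Nat.card N % 3 = 1 := by
  classical
  haveI := Fintype.ofFinite N
  haveI : Fact (Nat.Prime 3) := ⟨Nat.prime_three⟩
  let f : Function.End N := fun n => ⟨ρ n, hN n n.2⟩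
  have hf : f ^ 3 ^ 1 = 1 := by
    have e : f ^ 3 ^ 1 = f * f * f := by rw [pow_one, pow_succ, pow_succ, pow_one]
    rw [e]
    funext n
    apply Subtype.ext
    exact cube n
  have h1 := Equiv.Perm.card_fixedPoints_modEq hf
  have h2 : Fintype.card (Function.fixedPoints f) = 1 := by
    rw [Fintype.card_eq_one_iff]
    refine ⟨⟨1, ?_⟩, ?_⟩
    · apply Subtype.ext
      exact map_one ρ
    · rintro ⟨n, hn⟩
      apply Subtype.ext
      apply Subtype.ext
      have h4 : ρ n = n := congrArg Subtype.val hn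
      exact fpf _ h4
  rw [Nat.card_eq_fintype_card]
  rw [h2] at h1
  exact h1

end Cfsg.Agent.Lib.Helper47.T2933
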