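import Mathlib
import Cfsg.Agent.Lib.Helper47.T2933.Defs

set_option autoImplicit false

namespace Cfsg.Agent.Lib.Helper47.T2933

variable {T : Type*} [Group T] [Finite T]

/-- [AB2] `|W| ≤ 16` via the homomorphism `y ↦ y⁻¹ * t y`. -/
theorem AB2 (hcomm : ∀ g k : T, g * k = k * g) (t : MulAut T)
    (fix4 : Nat.card {g : T // t g = g} = 4) (W : Subgroup T)
    (hW : ∀ y ∈ W, t (y⁻¹ * t y) = y⁻¹ * t y) : Nat.card W ≤ 16 := by
  let V : Subgroup T :=
    { carrier := {g | t g = g}
      one_mem' := map_one t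
      mul_mem' := by
        intro a b ha hb
        show t (a * b) = a * b
        rw [map_mul, ha, hb]
      inv_mem' := by
        intro a ha
        show t a⁻¹ = a⁻¹
        rw [map_inv, ha] }
  have hV : Nat.card V = 4 := fix4
  let φ : W →* V :=
    { toFun := fun y => ⟨y.1⁻¹ * t y.1, hW y.1 y.2⟩
      map_one' := by
        apply Subtype.ext
        show ((1 : W) : T)⁻¹ * t ((1 : W) : T) = 1
        simp
      map_mul' := by
        intro y z
        apply Subtype.ext
        show (y.1 * z.1)⁻¹ * t (y.1 * z.1) = (y.1⁻¹ * t y.1) * (z.1⁻¹ * t z.1)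
        rw [map_mul, mul_inv_rev]
        calc z.1⁻¹ * y.1⁻¹ * (t y.1 * t z.1) = z.1⁻¹ * (y.1⁻¹ * t y.1) * t z.1 := by
              simp only [mul_assoc]
          _ = (y.1⁻¹ * t y.1) * z.1⁻¹ * t z.1 := by rw [hcomm z.1⁻¹]
          _ = _ := by rw [mul_assoc] }
  have h1 : Nat.card φ.ker * φ.ker.index = Nat.card W := φ.ker.card_mul_index
  have h2 : φ.ker.index = Nat.card φ.range := Subgroup.index_ker φ
  have h3 : Nat.card φ.range ≤ 4 := by
    rw [← hV]
    exact Subgroup.card_le_card_group _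
  have h4 : Nat.card φ.ker ≤ 4 := by
    rw [← hV]
    have hk : ∀ y : φ.ker, t y.1.1 = y.1.1 := by
      intro y
      have h := y.2
      rw [MonoidHom.mem_ker] at h
      have h' : y.1.1⁻¹ * t y.1.1 = 1 := congrArg Subtype.val h
      exact (eq_of_inv_mul_eq_one h').symm
    apply Nat.card_le_card_of_injective (fun y : φ.ker => (⟨y.1.1, hk y⟩ : V))
    intro a b hab
    apply Subtype.ext
    apply Subtype.ext
    have h5 : (⟨a.1.1, hk a⟩ : V) = ⟨b.1.1, hk b⟩ := hab
    exact congrArg (fun v : V => v.1) h5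
  rw [← h1, h2]
  calc Nat.card φ.ker * Nat.card φ.range ≤ 4 * 4 := Nat.mul_le_mul h4 h3
    _ = 16 := by norm_num

end Cfsg.Agent.Lib.Helper47.T2933
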