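import Mathlib
import Cfsg.Agent.Lib.Helper47.T2933.Defs

set_option autoImplicit false

namespace Cfsg.Agent.Lib.Helper47.T2933

variable {T : Type*} [Group T] [Finite T]

/-- [AB3] an involutory automorphism of a 2-group fixes a nontrivial element of every nontrivial
invariant subgroup. -/
theorem AB3 (hT : IsPGroup 2 T) (t : MulAut T) (tsq : ∀ g, t (t g) = g) (N : Subgroup T)
    (hN : ∀ g ∈ N, t g ∈ N) (hN1 : N ≠ ⊥) : ∃ v ∈ N, v ≠ 1 ∧ t v = v := by
  classical
  have := Fintype.ofFinite ↥N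
  have : Fact (Nat.Prime 2) := ⟨Nat.prime_two⟩
  let f : Function.End ↥N := fun n => ⟨t n, hN n n.2⟩
  have hf : f ^ 2 ^ 1 = 1 := by
    funext n
    rw [pow_one, pow_two]
    exact Subtype.ext (tsq n)
  have hmod := Equiv.Perm.card_fixedPoints_modEq (p := 2) (n := 1) hf
  have hNnt : Nontrivial ↥N := (Subgroup.nontrivial_iff_ne_bot N).mpr hN1
  have h2 : 2 ∣ Fintype.card ↥N := by
    obtain ⟨k, hk⟩ := IsPGroup.iff_card.mp (hT.to_subgroup N)
    rw [Nat.card_eq_fintype_card] at hk
    have hk0 : k ≠ 0 := by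
      rintro rfl
      have h1 : 1 < Fintype.card ↥N := Fintype.one_lt_card
      rw [hk] at h1
      simp at h1
    rw [hk]
    exact dvd_pow_self 2 hk0
  have h3 : 2 ∣ Fintype.card (Function.fixedPoints f) := by
    exact (Nat.modEq_zero_iff_dvd.mp (hmod.symm.trans (Nat.modEq_zero_iff_dvd.mpr h2)))
  have hone : (1 : ↥N) ∈ Function.fixedPoints f := by
    show f 1 = 1
    exact Subtype.ext (map_one t)
  have h4 : 1 < Fintype.card (Function.fixedPoints f) := by
    have hpos : 0 < Fintype.card (Function.fixedPoints f) := Fintype.card_pos_iff.mpr ⟨⟨1, hone⟩⟩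
    have := Nat.le_of_dvd hpos h3
    omega
  obtain ⟨v, hv⟩ := Fintype.exists_ne_of_one_lt_card h4 ⟨1, hone⟩
  refine ⟨v.1.1, v.1.2, ?_, ?_⟩
  · intro h
    apply hv
    exact Subtype.ext (Subtype.ext h)
  · have := v.2
    exact congrArg Subtype.val this

end Cfsg.Agent.Lib.Helper47.T2933
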