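import Mathlib
import Cfsg.Agent.Lib.Helper47.T2933.Defs
import Cfsg.Agent.Lib.Helper47.T2933.AB1

set_option autoImplicit false

/-! T2933 PartAB piece AB4 (helper79 mini-farm).  The fixed points of `t` have square 1. -/
namespace Cfsg.Agent.Lib.Helper47.T2933

variable {T : Type*} [Group T] [Finite T]

theorem AB4 (ρ t : MulAut T) (h : Hyp ρ t) (hcomm : ∀ g k : T, g * k = k * g) :
    ∀ g : T, t g = g → g ^ 2 = 1 := by
  let Vs : Subgroup T :=
    { carrier := {g | t g = g}
      one_mem' := map_one t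
      mul_mem' := by
        intro a b ha hb
        show t (a * b) = a * b
        rw [map_mul, ha, hb]
      inv_mem' := by
        intro a ha
        show t a⁻¹ = a⁻¹
        rw [map_inv, ha] }
  let N : Subgroup T :=
    { carrier := {g | t g = g ∧ g ^ 2 = 1}
      one_mem' := ⟨map_one t, one_pow 2⟩
      mul_mem' := by
        intro a b ha hb
        refine ⟨?_, ?_⟩
        · rw [map_mul, ha.1, hb.1]
        · rw [(show Commute a b from hcomm a b).mul_pow, ha.2, hb.2, one_mul]
      inv_mem' := by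
        intro a ha
        refine ⟨?_, ?_⟩
        · rw [map_inv, ha.1]
        · rw [inv_pow, ha.2, inv_one] }
  have hVs : Nat.card Vs = 4 := h.fix4
  have hle : N ≤ Vs := fun g hg => hg.1
  have hNρ : ∀ g ∈ N, ρ g ∈ N := by
    intro g hg
    refine ⟨?_, ?_⟩
    · rw [h.tρ, hg.1]
    · rw [← map_pow, hg.2, map_one]
  have hmod : Nat.card N % 3 = 1 := AB1 ρ h.cube h.fpf N hNρ
  have hdvd : Nat.card N ∣ 4 := hVs ▸ Subgroup.card_dvd_of_le hle
  have hle4 : Nat.card N ≤ 4 := Nat.le_of_dvd (by norm_num) hdvd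
  -- N is nontrivial
  have hne : Nat.card N ≠ 1 := by
    intro h1
    have hbot : N = ⊥ := Subgroup.card_eq_one.1 h1
    haveI : Fact (Nat.Prime 2) := ⟨Nat.prime_two⟩
    obtain ⟨x, hx⟩ := exists_prime_orderOf_dvd_card' (G := Vs) 2 (by rw [hVs]; norm_num)
    have hx2 : (x : T) ^ 2 = 1 := by
      have := pow_orderOf_eq_one x
      rw [hx] at this
      exact_mod_cast congrArg Subtype.val this
    have hxN : (x : T) ∈ N := ⟨x.2, hx2⟩
    rw [hbot, Subgroup.mem_bot] at hxN
    have hx1 : x = 1 := Subtype.ext hxN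
    rw [hx1, orderOf_one] at hx
    norm_num at hx
  have h4 : Nat.card N = 4 := by
    have hpos : 0 < Nat.card N := Nat.card_pos
    interval_cases hc : Nat.card N <;> simp_all
  have heq : N = Vs := Subgroup.eq_of_le_of_card_ge hle (by rw [hVs, h4])
  intro g hg
  have : g ∈ N := by
    rw [heq]
    exact hg
  exact this.2

end Cfsg.Agent.Lib.Helper47.T2933
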