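import Mathlib
import Cfsg.Agent.Lib.Helper47.T2933.Defs
import Cfsg.Agent.Lib.Helper47.T2933.AB1
import Cfsg.Agent.Lib.Helper47.T2933.AB2
import Cfsg.Agent.Lib.Helper47.T2933.AB4

set_option autoImplicit false

/-! T2933 PartAB piece AB5 (helper79 mini-farm).  `|Ω| ∈ {4, 16}` for `Ω = {g | g ^ 2 = 1}`. -/
namespace Cfsg.Agent.Lib.Helper47.T2933

variable {T : Type*} [Group T] [Finite T]

theorem AB5 (hT : IsPGroup 2 T) (ρ t : MulAut T) (h : Hyp ρ t) (hcomm : ∀ g k : T, g * k = k * g) :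
    Nat.card {g : T // g ^ 2 = 1} = 4 ∨ Nat.card {g : T // g ^ 2 = 1} = 16 := by
  let Om : Subgroup T :=
    { carrier := {g | g ^ 2 = 1}
      one_mem' := one_pow 2
      mul_mem' := by
        intro a b ha hb
        show (a * b) ^ 2 = 1
        rw [(show Commute a b from hcomm a b).mul_pow, ha, hb, one_mul]
      inv_mem' := by
        intro a ha
        show a⁻¹ ^ 2 = 1
        rw [inv_pow, ha, inv_one] }
  show Nat.card Om = 4 ∨ Nat.card Om = 16
  have hmod : Nat.card Om % 3 = 1 := by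
    apply AB1 ρ h.cube h.fpf Om
    intro g hg
    show (ρ g) ^ 2 = 1
    rw [← map_pow, hg, map_one]
  have hinv : ∀ g : T, g ^ 2 = 1 → g⁻¹ = g := by
    intro g hg
    rw [inv_eq_iff_mul_eq_one, ← pow_two, hg]
  have hle16 : Nat.card Om ≤ 16 := by
    apply AB2 hcomm t h.fix4 Om
    intro y hy
    have hy2 : y ^ 2 = 1 := hy
    have hty2 : (t y) ^ 2 = 1 := by rw [← map_pow, hy2, map_one]
    rw [map_mul, map_inv, h.tsq, hinv _ hty2, hinv _ hy2, hcomm]
  have hge4 : 4 ≤ Nat.card Om := by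
    rw [← h.fix4]
    apply Nat.card_le_card_of_injective
      (fun g : {g : T // t g = g} => (⟨g.1, AB4 ρ t h hcomm g.1 g.2⟩ : Om))
    intro a b hab
    exact Subtype.ext (congrArg (fun x : Om => (x : T)) hab)
  obtain ⟨k, hk⟩ := (hT.to_subgroup Om).exists_card_eq
  rw [hk] at hmod hle16 hge4 ⊢
  have hk4 : k ≤ 4 := by
    by_contra hcon
    have : 2 ^ 5 ≤ 2 ^ k := Nat.pow_le_pow_right (by norm_num) (by omega)
    omega
  interval_cases k <;> simp_all

end Cfsg.Agent.Lib.Helper47.T2933
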