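import Mathlib
import Cfsg.Agent.Lib.Helper47.T2933.Defs
import Cfsg.Agent.Lib.Helper47.T2933.AB2
import Cfsg.Agent.Lib.Helper47.T2933.AB3

set_option autoImplicit false

/-! S2933 PartAB (helper79's mini-farm), piece AB6. -/

namespace Cfsg.Agent.Lib.Helper47.T2933

variable {T : Type*} [Group T] [Finite T]

theorem AB6_mul_sq (hcomm : ∀ g k : T, g * k = k * g) (a b : T) : (a * b) ^ 2 = a ^ 2 * b ^ 2 :=
  (show Commute a b from hcomm a b).mul_pow 2

/-- the subgroup of squares -/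
def AB6_N (hcomm : ∀ g k : T, g * k = k * g) : Subgroup T where
  carrier := {g | ∃ y : T, g = y ^ 2}
  mul_mem' := by
    rintro _ _ ⟨a, rfl⟩ ⟨b, rfl⟩
    exact ⟨a * b, (AB6_mul_sq hcomm a b).symm⟩
  one_mem' := ⟨1, by simp⟩
  inv_mem' := by
    rintro _ ⟨a, rfl⟩
    exact ⟨a⁻¹, by simp⟩

/-- the elements whose square is fixed by `t` -/
def AB6_W (hcomm : ∀ g k : T, g * k = k * g) (t : MulAut T) : Subgroup T where
  carrier := {y | t (y ^ 2) = y ^ 2}
  mul_mem' := by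
    intro a b ha hb
    show t ((a * b) ^ 2) = (a * b) ^ 2
    rw [AB6_mul_sq hcomm, map_mul]
    rw [show t (a ^ 2) = a ^ 2 from ha, show t (b ^ 2) = b ^ 2 from hb]
  one_mem' := by
    show t (1 ^ 2) = 1 ^ 2
    simp
  inv_mem' := by
    intro a ha
    show t (a⁻¹ ^ 2) = a⁻¹ ^ 2
    rw [inv_pow, map_inv, show t (a ^ 2) = a ^ 2 from ha]

theorem AB6 (hT : IsPGroup 2 T) (ρ t : MulAut T) (h : Hyp ρ t) (hcomm : ∀ g k : T, g * k = k * g)
    (h16 : Nat.card {g : T // g ^ 2 = 1} = 16) : Nat.card T = 16 ∧ ∀ x : T, x ^ 2 = 1 := by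
  have key : ∀ x : T, x ^ 2 = 1 := by
    by_contra hcon
    push Not at hcon
    obtain ⟨x, hx⟩ := hcon
    have hN1 : AB6_N hcomm ≠ ⊥ := by
      intro hb
      have : x ^ 2 ∈ AB6_N hcomm := ⟨x, rfl⟩
      rw [hb, Subgroup.mem_bot] at this
      exact hx this
    obtain ⟨v, ⟨y, rfl⟩, hv1, hv⟩ := AB3 hT t h.tsq (AB6_N hcomm)
      (by
        rintro _ ⟨a, rfl⟩
        exact ⟨t a, by rw [map_pow]⟩) hN1
    have hW : Nat.card (AB6_W hcomm t) ≤ 16 := by
      apply AB2 hcomm t h.fix4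
      intro a ha
      have ha' : t a * t a = a * a := by
        have : t (a ^ 2) = a ^ 2 := ha
        rwa [map_pow, pow_two, pow_two] at this
      rw [map_mul, map_inv, h.tsq, eq_inv_mul_iff_mul_eq]
      calc a * ((t a)⁻¹ * a) = (a * (t a)⁻¹) * a := by rw [mul_assoc]
        _ = ((t a)⁻¹ * a) * a := by rw [hcomm a (t a)⁻¹]
        _ = (t a)⁻¹ * (a * a) := by rw [mul_assoc]
        _ = (t a)⁻¹ * (t a * t a) := by rw [ha']
        _ = t a := by rw [inv_mul_cancel_left]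
    have hlt : Nat.card {w : AB6_W hcomm t // (w : T) ^ 2 = 1} < Nat.card (AB6_W hcomm t) :=
      Finite.card_subtype_lt (x := (⟨y, hv⟩ : AB6_W hcomm t)) hv1
    have hle : Nat.card {g : T // g ^ 2 = 1} ≤ Nat.card {w : AB6_W hcomm t // (w : T) ^ 2 = 1} := by
      refine Nat.card_le_card_of_injective
        (fun g : {g : T // g ^ 2 = 1} =>
          (⟨⟨g.1, by
            show t (g.1 ^ 2) = g.1 ^ 2
            rw [g.2, map_one]⟩, g.2⟩ : {w : AB6_W hcomm t // (w : T) ^ 2 = 1})) ?_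
      intro a b hab
      apply Subtype.ext
      exact congrArg (fun z : {w : AB6_W hcomm t // (w : T) ^ 2 = 1} => ((z : AB6_W hcomm t) : T)) hab
    omega
  refine ⟨?_, key⟩
  rw [← h16]
  exact (Nat.card_congr (Equiv.subtypeUnivEquiv key)).symm

end Cfsg.Agent.Lib.Helper47.T2933
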