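import Mathlib
import Cfsg.Agent.Lib.Helper47.T2933.Defs

set_option autoImplicit false

/-! S2933 PartAB (helper79's mini-farm), piece AB7. -/

namespace Cfsg.Agent.Lib.Helper47.T2933

variable {T : Type*} [Group T] [Finite T]

/-- the squaring homomorphism on a subgroup of a commutative group -/
def AB7_sq (hcomm : ∀ g k : T, g * k = k * g) (A : Subgroup T) : A →* T where
  toFun a := (a : T) ^ 2
  map_one' := by simp
  map_mul' a b := by
    have : Commute (a : T) (b : T) := hcomm a b
    simpa using this.mul_pow 2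

theorem AB7 (hcomm : ∀ g k : T, g * k = k * g) (h4 : Nat.card {g : T // g ^ 2 = 1} ≤ 4) (n : ℕ)
    (A : Subgroup T) (hA : ∀ a ∈ A, a ^ (2 ^ n) = 1) : Nat.card A ≤ 4 ^ n := by
  induction n generalizing A with
  | zero =>
    have : A = ⊥ := by
      rw [eq_bot_iff]
      intro a ha
      simpa using hA a ha
    rw [this]
    simp
  | succ n ih =>
    have h1 : Nat.card (AB7_sq hcomm A).ker * (AB7_sq hcomm A).ker.index = Nat.card A :=
      Subgroup.card_mul_index _
    rw [Subgroup.index_ker] at h1
    have h2 : Nat.card (AB7_sq hcomm A).ker ≤ 4 := by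
      refine le_trans ?_ h4
      refine Nat.card_le_card_of_injective
        (fun x : (AB7_sq hcomm A).ker => (⟨(x.1 : T), x.2⟩ : {g : T // g ^ 2 = 1})) ?_
      intro x y hxy
      apply Subtype.ext
      apply Subtype.ext
      exact congrArg (fun z : {g : T // g ^ 2 = 1} => (z : T)) hxy
    have h3 : Nat.card (AB7_sq hcomm A).range ≤ 4 ^ n := by
      apply ih
      rintro _ ⟨a, rfl⟩
      show ((a : T) ^ 2) ^ 2 ^ n = 1
      rw [← pow_mul, ← pow_succ']
      exact hA a a.2
    calc Nat.card A = Nat.card (AB7_sq hcomm A).ker * Nat.card (AB7_sq hcomm A).range := h1.symm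
      _ ≤ 4 * 4 ^ n := Nat.mul_le_mul h2 h3
      _ = 4 ^ (n + 1) := by ring

end Cfsg.Agent.Lib.Helper47.T2933
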