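import Mathlib
import Cfsg.Agent.Lib.Helper47.T2933.Defs

set_option autoImplicit false

namespace Cfsg.Agent.Lib.Helper47.T2933

variable {T : Type*} [Group T] [Finite T]

/-- [AB8] an element of maximal order `2 ^ n`, `n ≥ 1`, in a nontrivial finite 2-group. -/
theorem AB8 (hT : IsPGroup 2 T) (hne : ∃ g : T, g ≠ 1) :
    ∃ (y : T) (n : ℕ), 1 ≤ n ∧ orderOf y = 2 ^ n ∧ ∀ g : T, g ^ (2 ^ n) = 1 := by
  obtain ⟨y, hy⟩ := Finite.exists_max (fun g : T => orderOf g)
  have hord : ∀ g : T, ∃ k : ℕ, orderOf g = 2 ^ k := fun g => IsPGroup.iff_orderOf.mp hT g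
  obtain ⟨n, hn⟩ := hord y
  refine ⟨y, n, ?_, hn, ?_⟩
  · obtain ⟨g, hg⟩ := hne
    by_contra hcon
    have hn0 : n = 0 := by omega
    have h1 : orderOf g ≤ 1 := by
      have := hy g
      rw [hn, hn0, pow_zero] at this
      exact this
    have h2 : 0 < orderOf g := orderOf_pos g
    have h3 : orderOf g = 1 := by omega
    exact hg (orderOf_eq_one_iff.mp h3)
  · intro g
    obtain ⟨k, hk⟩ := hord g
    have hle : 2 ^ k ≤ 2 ^ n := by
      have := hy g
      rwa [hn, hk] at this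
    have hkn : k ≤ n := (Nat.pow_le_pow_iff_right (by norm_num)).mp hle
    apply orderOf_dvd_iff_pow_eq_one.mp
    rw [hk]
    exact Nat.pow_dvd_pow 2 hkn

end Cfsg.Agent.Lib.Helper47.T2933
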